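import Cfsg.Agent.H2.Bs.BS21
import Cfsg.Agent.H59.Bs.CountSp
import Cfsg.Agent.H181.Bs.Sp

/-!
# S5733, BS21: the statement `S21` (helper2)
-/

set_option autoImplicit false

namespace Cfsg.Agent.H2.Bs

open Cfsg.Agent.H847.Bs Module

/-- **BS21** -/
theorem s21 : S21 := by
  intro h40
  obtain ⟨c, hc, K₀, h1⟩ := Cfsg.Agent.H59.Bs.s10
  obtain ⟨ε, hε, h2⟩ := h40
  set K := max K₀ 4 with hK
  set c' : ℝ := c / (K + 1) with hc'
  have hc'0 : 0 < c' := by positivity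
  refine ⟨c' * min 1 ε / 4, by positivity, 2 * K + 8, fun F V _ _ _ _ _ Φ hΦ hn H _ hH => ?_⟩
  obtain ⟨W, U, h, hW⟩ := Cfsg.Agent.H181.Bs.exists_dec hΦ 2 (by omega)
  obtain ⟨n, hn'⟩ := even_finrank (isSp_right hΦ h)
  have h3 := finrank_dec h
  have h4 := coreG hΦ.nd trickP h (K := K) (d := 2 * n) (by rw [hW]; exact le_max_right _ _) hc'0 hε
    (h1 F U (Φ.on U) n K (isSp_right hΦ h) (le_max_left _ _) hn' (by omega))
    (h2 F W (Φ.on W) (isSp_left hΦ h) hW) H (by linarith)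
  rwa [hW] at h4

end Cfsg.Agent.H2.Bs
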